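import Cfsg.Agent.Lib.Amalgam.Critical
import Cfsg.Agent.Lib.Core.Residual
import Cfsg.Prelude.Def_LocalStructure

/-! The iterated closures `V_δ^{(n)}` on the coset graph: equivariance, monotonicity, and the
statement that `O^p(L_λ)` cannot act trivially on the sections `V^{(n)} / V_α^{(n-1)}`. -/

set_option autoImplicit false

namespace Cfsg.Agent.Lib.Amalgam.VIter

open Cfsg Cfsg.Agent.Lib.Amalgam.Basic Cfsg.Agent.Lib.Amalgam.CharP Cfsg.Agent.Lib.Amalgam.Critical

universe u

open scoped commutatorElement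

section abstract_

variable {X : Type u} [Group X] {p : ℕ}

lemma map_conj_le_of_mem_normalizer {N : Subgroup X} {g : X}
    (hg : g ∈ Subgroup.normalizer (N : Set X)) : N.map (MulAut.conj g).toMonoidHom ≤ N := by
  rintro _ ⟨x, hx, rfl⟩
  exact (Subgroup.mem_normalizer_iff.1 hg x).1 hx

lemma commutator_mem_normalizer {A B : Subgroup X} {g : X}
    (hA : g ∈ Subgroup.normalizer (A : Set X)) (hB : g ∈ Subgroup.normalizer (B : Set X)) :
    g ∈ Subgroup.normalizer ((⁅A, B⁆ : Subgroup X) : Set X) := by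
  have key : ∀ g : X, g ∈ Subgroup.normalizer (A : Set X) → g ∈ Subgroup.normalizer (B : Set X) →
      (⁅A, B⁆ : Subgroup X).map (MulAut.conj g).toMonoidHom ≤ ⁅A, B⁆ := by
    intro g hA hB
    rw [Subgroup.map_commutator]
    exact Subgroup.commutator_mono (map_conj_le_of_mem_normalizer hA)
      (map_conj_le_of_mem_normalizer hB)
  exact mem_normalizer_of_conj_le (key g hA hB) (key g⁻¹ (Subgroup.inv_mem _ hA) (Subgroup.inv_mem _ hB))

lemma sup_mem_normalizer {A B : Subgroup X} {g : X}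
    (hA : g ∈ Subgroup.normalizer (A : Set X)) (hB : g ∈ Subgroup.normalizer (B : Set X)) :
    g ∈ Subgroup.normalizer ((A ⊔ B : Subgroup X) : Set X) := by
  have key : ∀ g : X, g ∈ Subgroup.normalizer (A : Set X) → g ∈ Subgroup.normalizer (B : Set X) →
      (A ⊔ B : Subgroup X).map (MulAut.conj g).toMonoidHom ≤ A ⊔ B := by
    intro g hA hB
    rw [Subgroup.map_sup]
    exact sup_le_sup (map_conj_le_of_mem_normalizer hA) (map_conj_le_of_mem_normalizer hB)
  exact mem_normalizer_of_conj_le (key g hA hB) (key g⁻¹ (Subgroup.inv_mem _ hA) (Subgroup.inv_mem _ hB))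

/-- `Z_H` is transported by conjugation. -/
lemma sylowCenterClosure_map_conj_le [Fact p.Prime] (H : Subgroup X) [Finite H] (g : X) :
    (sylowCenterClosure p H).map (MulAut.conj g).toMonoidHom ≤
      sylowCenterClosure p (H.map (MulAut.conj g).toMonoidHom) := by
  unfold sylowCenterClosure
  rw [Subgroup.map_iSup]
  refine iSup_le fun S => ?_
  obtain ⟨H', hH'⟩ : ∃ H', H' = H.map (MulAut.conj g).toMonoidHom := ⟨_, rfl⟩
  rw [← hH']
  have hfin : Finite H' := by
    rw [hH']
    exact Finite.of_equiv _ (conjEquiv H g).toEquiv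
  obtain ⟨T, hT⟩ : ∃ T, T = ((S : Subgroup H).map H.subtype).map (MulAut.conj g).toMonoidHom :=
    ⟨_, rfl⟩
  have hTH' : T ≤ H' := by
    rw [hT, hH']
    exact Subgroup.map_mono (map_sylow_le H _)
  have hcard : Nat.card T = p ^ (Nat.card H').factorization p := by
    rw [hT, card_map_conj, card_map_sylow, hH', card_map_conj]
  obtain ⟨S', hS'⟩ := exists_sylow_of_card H' T hTH' hcard
  have hm := map_sylow_subgroupOf hTH' S' hS'
  refine le_trans ?_ (le_iSup _ S')
  rw [omegaOne_map_conj, Subgroup.map_inf _ _ _ (MulAut.conj g).injective, centralizer_map_conj,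
    hm, hT]

/-- A nontrivial finite `p`-subgroup has a central element of order `p`. -/
lemma exists_central_order_p [Fact p.Prime] (T : Subgroup X) [Finite T] (hp : IsPGroup p T)
    (hne : T ≠ ⊥) : ∃ x ∈ T ⊓ Subgroup.centralizer (T : Set X), x ≠ 1 ∧ x ^ p = 1 := by
  haveI : Nontrivial T := (Subgroup.nontrivial_iff_ne_bot T).2 hne
  haveI := hp.center_nontrivial
  have hC : IsPGroup p (Subgroup.center T) := hp.to_subgroup _
  obtain ⟨n, hn, hcard⟩ := (hC.nontrivial_iff_card).1 inferInstance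
  have hdvd : p ∣ Nat.card (Subgroup.center T) := by
    rw [hcard]
    exact dvd_pow_self p hn.ne'
  obtain ⟨c, hc⟩ := exists_prime_orderOf_dvd_card' p hdvd
  have hcp : c ^ p = 1 := by rw [← hc]; exact pow_orderOf_eq_one c
  have hc1 : c ≠ 1 := by
    intro e
    rw [e, orderOf_one] at hc
    exact (Fact.out : p.Prime).one_lt.ne hc
  refine ⟨((c : T) : X), ⟨(c : T).2, ?_⟩, ?_, ?_⟩
  · refine Subgroup.mem_centralizer_iff.2 ?_
    intro y hy
    have := (Subgroup.mem_center_iff.1 c.2) ⟨y, hy⟩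
    exact congrArg Subtype.val this
  · intro e
    exact hc1 (Subtype.ext (Subtype.ext e))
  · have := congrArg (fun z : Subgroup.center T => ((z : T) : X)) hcp
    simpa using this

lemma factorization_card_eq_of_between [Fact p.Prime] {T P A : Subgroup X} [Finite A]
    (hTP : T ≤ P) (hPA : P ≤ A) (hT : Nat.card T = p ^ (Nat.card A).factorization p) :
    (haveI : Finite P := Finite.of_injective _ (Subgroup.inclusion_injective hPA)
    Nat.card T = p ^ (Nat.card P).factorization p) := by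
  have : Finite P := Finite.of_injective _ (Subgroup.inclusion_injective hPA)
  have hne : (Nat.card A) ≠ 0 := Nat.card_pos.ne'
  have h1 : Nat.card P ∣ Nat.card A := by
    have := Subgroup.card_dvd_of_le (show P.subgroupOf A ≤ ⊤ from le_top)
    rw [Subgroup.card_top] at this
    rwa [Nat.card_congr (Subgroup.subgroupOfEquivOfLe hPA).toEquiv] at this
  have h2 : Nat.card T ∣ Nat.card P := by
    have := Subgroup.card_dvd_of_le (show T.subgroupOf P ≤ ⊤ from le_top)
    rw [Subgroup.card_top] at this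
    rwa [Nat.card_congr (Subgroup.subgroupOfEquivOfLe hTP).toEquiv] at this
  have hP0 : Nat.card P ≠ 0 := Nat.card_pos.ne'
  have h3 : (Nat.card P).factorization p ≤ (Nat.card A).factorization p :=
    (Nat.factorization_le_iff_dvd hP0 hne).2 h1 p
  have h4 : (Nat.card A).factorization p ≤ (Nat.card P).factorization p := by
    rw [hT] at h2
    exact (Nat.Prime.pow_dvd_iff_le_factorization Fact.out hP0).1 h2
  rw [hT, le_antisymm h3 h4]

/-- `O^p(L)` of `L = O^{p'}(H)`, viewed in the ambient group. -/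
noncomputable abbrev residualOf (p : ℕ) (H : Subgroup X) : Subgroup X :=
  (pResidual p ↥(pElementClosure p H)).map (pElementClosure p H).subtype

/-- `L = T O^p(L)` for a Sylow `T` of `H`. -/
lemma pElementClosure_le_sup [Fact p.Prime] (H T : Subgroup X) [Finite H] (hTH : T ≤ H)
    (hTp : IsPGroup p T) (hcard : Nat.card T = p ^ (Nat.card H).factorization p) :
    pElementClosure p H ≤ T ⊔ residualOf p H := by
  have hTL : T ≤ pElementClosure p H := fun t ht =>
    mem_pElementClosure_of_orderOf (hTH ht) (orderOf_of_isPGroup hTp ht)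
  have hLH : pElementClosure p H ≤ H := pElementClosure_le H
  haveI hfin : Finite (pElementClosure p H) :=
    Finite.of_injective _ (Subgroup.inclusion_injective hLH)
  have hcardL := factorization_card_eq_of_between hTL hLH hcard
  obtain ⟨P, hP⟩ := exists_sylow_of_card (pElementClosure p H) T hTL hcardL
  have htop := Cfsg.Agent.Lib.Core.Residual.sylow_sup_pResidual P
  intro x hx
  have hx' : (⟨x, hx⟩ : pElementClosure p H) ∈ ((P : Subgroup _) ⊔ pResidual p _) := by
    rw [htop]; trivial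
  have h2 := Subgroup.mem_map_of_mem (pElementClosure p H).subtype hx'
  rw [Subgroup.map_sup, map_sylow_subgroupOf hTL P hP] at h2
  exact h2

lemma le_normalizer_residualOf (H : Subgroup X) :
    H ≤ Subgroup.normalizer (residualOf p H : Set X) := by
  have key : ∀ g ∈ H, (residualOf p H).map (MulAut.conj g).toMonoidHom ≤ residualOf p H := by
    intro g hg
    have hgn := le_normalizer_pElementClosure (p := p) H hg
    unfold residualOf pResidual
    rw [MonoidHom.map_closure, MonoidHom.map_closure, Subgroup.closure_le]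
    rintro _ ⟨_, ⟨x, hx, rfl⟩, rfl⟩
    have hmem : g * (x : X) * g⁻¹ ∈ pElementClosure p H :=
      (Subgroup.mem_normalizer_iff.1 hgn _).1 x.2
    apply Subgroup.subset_closure
    refine ⟨⟨_, hmem⟩, ?_, rfl⟩
    have ho : orderOf (⟨_, hmem⟩ : pElementClosure p H) = orderOf (x : X) := by
      rw [Subgroup.orderOf_mk]
      exact MulEquiv.orderOf_eq (MulAut.conj g) _
    show Nat.Coprime _ _
    rw [ho, Subgroup.orderOf_coe]
    exact hx
  exact fun g hg => mem_normalizer_of_conj_le (key g hg) (key g⁻¹ (H.inv_mem hg))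

/-- A subgroup normalized by a Sylow `T` of `H`, by `O^p(L)` and by `N_H(T)` is normalized by `H`. -/
lemma le_normalizer_of_sylow [Fact p.Prime] (H T W : Subgroup X) [Finite H] (hTH : T ≤ H)
    (hTp : IsPGroup p T) (hcard : Nat.card T = p ^ (Nat.card H).factorization p)
    (h1 : T ≤ Subgroup.normalizer (W : Set X))
    (h2 : residualOf p H ≤ Subgroup.normalizer (W : Set X))
    (h3 : H ⊓ Subgroup.normalizer (T : Set X) ≤ Subgroup.normalizer (W : Set X)) :
    H ≤ Subgroup.normalizer (W : Set X) := by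
  intro g hg
  have hTL : T ≤ pElementClosure p H := fun t ht =>
    mem_pElementClosure_of_orderOf (hTH ht) (orderOf_of_isPGroup hTp ht)
  obtain ⟨y, hy, n, hn, rfl⟩ := frattini_sylow H (pElementClosure p H) T (pElementClosure_le H)
    (le_normalizer_pElementClosure H) hTL hcard g hg
  exact Subgroup.mul_mem _ ((pElementClosure_le_sup H T hTH hTp hcard).trans (sup_le h1 h2) hy)
    (h3 hn)

/-- If `V ≤ N [V, G]` with `G` nilpotent and `N` normal, then `V ≤ N`. -/
lemma le_of_le_sup_commutator {G : Type*} [Group G] [Group.IsNilpotent G] (N V : Subgroup G)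
    [N.Normal] (h : V ≤ N ⊔ ⁅V, (⊤ : Subgroup G)⁆) : V ≤ N := by
  have hsurj : Function.Surjective (QuotientGroup.mk' N) := QuotientGroup.mk'_surjective N
  obtain ⟨M, hM⟩ : ∃ M, M = V.map (QuotientGroup.mk' N) := ⟨_, rfl⟩
  have hMle : M ≤ ⁅M, (⊤ : Subgroup (G ⧸ N))⁆ := by
    have h1 : M ≤ (N ⊔ ⁅V, (⊤ : Subgroup G)⁆).map (QuotientGroup.mk' N) := by
      rw [hM]; exact Subgroup.map_mono h
    rw [Subgroup.map_sup, Subgroup.map_commutator, ← hM,
      Subgroup.map_top_of_surjective _ hsurj] at h1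
    have h0 : N.map (QuotientGroup.mk' N) = ⊥ := by
      rw [Subgroup.map_eq_bot_iff, QuotientGroup.ker_mk']
    rwa [h0, bot_sup_eq] at h1
  have hall : ∀ k, M ≤ (⊤ : Subgroup (G ⧸ N)).lowerCentralSeries k := by
    intro k
    induction k with
    | zero => exact le_top
    | succ k ih => exact hMle.trans (Subgroup.commutator_mono ih le_rfl)
  haveI : Group.IsNilpotent (G ⧸ N) := nilpotent_of_surjective _ hsurj
  obtain ⟨c, hc⟩ := nilpotent_iff_lowerCentralSeries.1 (inferInstance : Group.IsNilpotent (G ⧸ N))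
  have hbot : M = ⊥ := le_bot_iff.1 (by rw [← hc]; exact hall c)
  rw [hM, Subgroup.map_eq_bot_iff, QuotientGroup.ker_mk'] at hbot
  exact hbot

lemma le_of_le_sup_commutator' [Fact p.Prime] (Q N V : Subgroup X) [Finite Q] (hQ : IsPGroup p Q)
    (hN : N ≤ Q) (hV : V ≤ Q) (hNn : Q ≤ Subgroup.normalizer (N : Set X))
    (h : V ≤ N ⊔ ⁅V, Q⁆) : V ≤ N := by
  haveI : (N.subgroupOf Q).Normal := (Subgroup.normal_subgroupOf_iff_le_normalizer hN).2 hNn
  haveI : Group.IsNilpotent Q := hQ.isNilpotent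
  have ht : (⊤ : Subgroup Q).map Q.subtype = Q := by
    rw [← MonoidHom.range_eq_map, Subgroup.range_subtype]
  have hmain : V.subgroupOf Q ≤ N.subgroupOf Q := by
    apply le_of_le_sup_commutator
    rw [← Subgroup.map_le_map_iff_of_injective Q.subtype_injective, Subgroup.map_sup,
      Subgroup.map_commutator, ht, Subgroup.map_subgroupOf_eq_of_le hV,
      Subgroup.map_subgroupOf_eq_of_le hN]
    exact h
  have := Subgroup.map_mono (f := Q.subtype) hmain
  rwa [Subgroup.map_subgroupOf_eq_of_le hV, Subgroup.map_subgroupOf_eq_of_le hN] at this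

lemma commutator_sup_central_le (Q Z U : Subgroup X) (hZQ : Z ≤ Q)
    (hZc : Z ≤ Subgroup.centralizer (Q : Set X)) (hU : U ≤ Q)
    (hUn : Q ≤ Subgroup.normalizer (U : Set X)) : ⁅Z ⊔ U, Q⁆ ≤ U := by
  let C : Subgroup X :=
    { carrier := {x | x ∈ Q ∧ ∀ q ∈ Q, ⁅x, q⁆ ∈ U}
      mul_mem' := by
        rintro x y ⟨hx, hx'⟩ ⟨hy, hy'⟩
        refine ⟨Q.mul_mem hx hy, fun q hq => ?_⟩
        have e : ⁅x * y, q⁆ = x * ⁅y, q⁆ * x⁻¹ * ⁅x, q⁆ := by
          simp only [commutatorElement_def]; group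
        rw [e]
        exact U.mul_mem ((Subgroup.mem_normalizer_iff.1 (hUn hx) _).1 (hy' q hq)) (hx' q hq)
      one_mem' := ⟨Q.one_mem, fun q _ => by simp⟩
      inv_mem' := by
        rintro x ⟨hx, hx'⟩
        refine ⟨Q.inv_mem hx, fun q hq => ?_⟩
        have e : ⁅x⁻¹, q⁆ = x⁻¹ * ⁅x, q⁆⁻¹ * x⁻¹⁻¹ := by
          simp only [commutatorElement_def]; group
        rw [e]
        exact (Subgroup.mem_normalizer_iff.1 (hUn (Q.inv_mem hx)) _).1 (U.inv_mem (hx' q hq)) }
  have hZC : Z ≤ C := by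
    intro z hz
    refine ⟨hZQ hz, fun q hq => ?_⟩
    have := (Subgroup.mem_centralizer_iff.1 (hZc hz)) q hq
    rw [commutatorElement_eq_one_iff_mul_comm.2 this.symm]
    exact U.one_mem
  have hUC : U ≤ C := by
    intro u hu
    refine ⟨hU hu, fun q hq => ?_⟩
    rw [commutatorElement_def]
    have e : u * q * u⁻¹ * q⁻¹ = u * (q * u⁻¹ * q⁻¹) := by group
    rw [e]
    exact U.mul_mem hu ((Subgroup.mem_normalizer_iff.1 (hUn hq) _).1 (U.inv_mem hu))
  rw [Subgroup.commutator_le]
  intro v hv q hq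
  exact (sup_le hZC hUC hv).2 q hq

end abstract_

section vertices

variable {X : Type u} [Group X] {p : ℕ} {M₁ M₂ : Subgroup X}

lemma exists_adj (δ : CosetVertex M₁ M₂) : ∃ α, (cosetGraph M₁ M₂).Adj δ α := by
  rcases vertex_cases δ with ⟨x, rfl⟩ | ⟨x, rfl⟩
  · exact ⟨_, adj_inl_inr x⟩
  · exact ⟨_, (adj_inl_inr x).symm⟩

lemma vertexZ_smul_le [Fact p.Prime] (h : IsCharPAmalgamPair p M₁ M₂) (g : X)
    (δ : CosetVertex M₁ M₂) :
    (vertexZ p δ).map (MulAut.conj g).toMonoidHom ≤ vertexZ p (g • δ) := by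
  have := finite_stabilizer h δ
  have e := MulAction.stabilizer_smul_eq_stabilizer_map_conj g δ
  show _ ≤ sylowCenterClosure p (MulAction.stabilizer X (g • δ))
  rw [e]
  exact sylowCenterClosure_map_conj_le _ g

lemma dist_smul_le (hconn : (cosetGraph M₁ M₂).Connected) (g : X) (a b : CosetVertex M₁ M₂) :
    (cosetGraph M₁ M₂).dist (g • a) (g • b) ≤ (cosetGraph M₁ M₂).dist a b := by
  obtain ⟨w, hw⟩ := hconn.exists_walk_length_eq_dist a b
  let f : cosetGraph M₁ M₂ →g cosetGraph M₁ M₂ := ⟨fun v => g • v, fun hadj => adj_smul g hadj⟩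
  have := SimpleGraph.dist_le (w.map f)
  rw [SimpleGraph.Walk.length_map, hw] at this
  exact this

lemma dist_smul (hconn : (cosetGraph M₁ M₂).Connected) (g : X) (a b : CosetVertex M₁ M₂) :
    (cosetGraph M₁ M₂).dist (g • a) (g • b) = (cosetGraph M₁ M₂).dist a b := by
  refine le_antisymm (dist_smul_le hconn g a b) ?_
  have := dist_smul_le hconn g⁻¹ (g • a) (g • b)
  simpa using this

lemma vertexVIter_smul_le [Fact p.Prime] (h : IsCharPAmalgamPair p M₁ M₂) (g : X) (n : ℕ)
    (δ : CosetVertex M₁ M₂) :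
    (vertexVIter p M₁ M₂ n δ).map (MulAut.conj g).toMonoidHom ≤
      vertexVIter p M₁ M₂ n (g • δ) := by
  have hconn := connected_of_sup_eq_top h.1.1
  unfold vertexVIter
  rw [Subgroup.map_iSup]
  refine iSup_le fun μ => (vertexZ_smul_le h g μ).trans ?_
  have hμ : (cosetGraph M₁ M₂).dist (g • δ) (g • (μ : CosetVertex M₁ M₂)) ≤ n := by
    rw [dist_smul hconn]; exact μ.2
  exact le_iSup (fun μ : {μ : CosetVertex M₁ M₂ // (cosetGraph M₁ M₂).dist (g • δ) μ ≤ n} =>
    vertexZ p (μ : CosetVertex M₁ M₂)) ⟨_, hμ⟩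

lemma le_normalizer_vertexVIter [Fact p.Prime] (h : IsCharPAmalgamPair p M₁ M₂) (n : ℕ)
    (δ : CosetVertex M₁ M₂) :
    MulAction.stabilizer X δ ≤ Subgroup.normalizer (vertexVIter p M₁ M₂ n δ : Set X) := by
  have key : ∀ g ∈ MulAction.stabilizer X δ,
      (vertexVIter p M₁ M₂ n δ).map (MulAut.conj g).toMonoidHom ≤ vertexVIter p M₁ M₂ n δ := by
    intro g hg
    have := vertexVIter_smul_le h g n δ
    rwa [show g • δ = δ from hg] at this
  exact fun g hg => mem_normalizer_of_conj_le (key g hg) (key g⁻¹ (Subgroup.inv_mem _ hg))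

lemma vertexZ_le_vertexVIter {n : ℕ} {δ μ : CosetVertex M₁ M₂}
    (hd : (cosetGraph M₁ M₂).dist δ μ ≤ n) : vertexZ p μ ≤ vertexVIter p M₁ M₂ n δ :=
  le_iSup (fun μ : {μ : CosetVertex M₁ M₂ // (cosetGraph M₁ M₂).dist δ μ ≤ n} =>
    vertexZ p (μ : CosetVertex M₁ M₂)) ⟨μ, hd⟩

lemma vertexVIter_mono_of_dist (hconn : (cosetGraph M₁ M₂).Connected) {k n : ℕ}
    {δ δ' : CosetVertex M₁ M₂} (hd : (cosetGraph M₁ M₂).dist δ δ' + k ≤ n) :
    vertexVIter p M₁ M₂ k δ' ≤ vertexVIter p M₁ M₂ n δ := by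
  refine iSup_le fun μ => vertexZ_le_vertexVIter ?_
  have h1 : (cosetGraph M₁ M₂).dist δ μ ≤
      (cosetGraph M₁ M₂).dist δ δ' + (cosetGraph M₁ M₂).dist δ' μ := hconn.dist_triangle
  have h2 : (cosetGraph M₁ M₂).dist δ' μ ≤ k := μ.2
  omega

lemma vertexZ_ne_bot [Fact p.Prime] (h : IsCharPAmalgamPair p M₁ M₂) (δ : CosetVertex M₁ M₂) :
    vertexZ p δ ≠ ⊥ := by
  have hfin := finite_stabilizer h δ
  have hdvd : p ∣ Nat.card (MulAction.stabilizer X δ) := by
    obtain ⟨x, hx | hx⟩ := stabilizer_cases δ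
    · rw [hx, card_map_conj]; exact h.2.2.2.1
    · rw [hx, card_map_conj]; exact h.2.2.2.2.1
  obtain ⟨S⟩ : Nonempty (Sylow p (MulAction.stabilizer X δ)) := inferInstance
  obtain ⟨T, hT⟩ : ∃ T, T = (S : Subgroup (MulAction.stabilizer X δ)).map
      (MulAction.stabilizer X δ).subtype := ⟨_, rfl⟩
  have hTne : T ≠ ⊥ := by
    rw [hT]
    intro e
    rw [Subgroup.map_eq_bot_iff_of_injective _ (Subgroup.subtype_injective _)] at e
    exact S.ne_bot_of_dvd_card hdvd e
  have hTp : IsPGroup p T := by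
    rw [hT]; exact S.isPGroup'.map _
  haveI : Finite T := by
    rw [hT]
    exact Finite.of_injective _ (Subgroup.inclusion_injective (map_sylow_le _ _))
  obtain ⟨x, hx, hx1, hxp⟩ := exists_central_order_p T hTp hTne
  intro e
  apply hx1
  have h1 : x ∈ omegaOne p (T ⊓ Subgroup.centralizer (T : Set X)) :=
    Subgroup.subset_closure ⟨hx, hxp⟩
  have h2 := omegaOne_le_sylowCenterClosure (p := p) (MulAction.stabilizer X δ) S
  rw [← hT] at h2
  have h3 := h2 h1
  have h4 : x ∈ vertexZ p δ := h3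
  rw [e] at h4
  simpa using h4

lemma vertexZ_le_centralizer [Fact p.Prime] (h : IsCharPAmalgamPair p M₁ M₂)
    (δ : CosetVertex M₁ M₂) :
    vertexZ p δ ≤ Subgroup.centralizer (vertexQ p δ : Set X) := by
  have hfin := finite_stabilizer h δ
  show sylowCenterClosure p (MulAction.stabilizer X δ) ≤ _
  unfold sylowCenterClosure
  refine iSup_le fun S => ?_
  unfold omegaOne
  refine (Subgroup.closure_le _).2 ?_
  rintro x ⟨⟨_, hxC⟩, _⟩
  exact Subgroup.mem_centralizer_iff.2 fun q hq =>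
    (Subgroup.mem_centralizer_iff.1 hxC) q (pCoreOf_le_map_sylow _ S hq)

/-- A subgroup of `Q_λ` normalized by `G_α` (`α` adjacent to `λ`) and by `O^p(L_λ)` is trivial. -/
theorem eq_bot_of_residual_normalizes [Fact p.Prime] (h : IsSpeAmalgamPair p M₁ M₂)
    {lam α : CosetVertex M₁ M₂} (hα : (cosetGraph M₁ M₂).Adj lam α) (U : Subgroup X)
    (hUQ : U ≤ vertexQ p lam) (hU : MulAction.stabilizer X α ≤ Subgroup.normalizer (U : Set X))
    (hR : residualOf p (MulAction.stabilizer X lam) ≤ Subgroup.normalizer (U : Set X)) :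
    U = ⊥ := by
  have hc := h.1
  have hfl := finite_stabilizer hc lam
  have hfe := finite_edge hc lam α
  obtain ⟨S⟩ : Nonempty (Sylow p ↥(edgeStabilizer lam α)) := inferInstance
  obtain ⟨T, hT⟩ : ∃ T, T = (S : Subgroup ↥(edgeStabilizer lam α)).map
      (edgeStabilizer lam α).subtype := ⟨_, rfl⟩
  have hTE : T ≤ edgeStabilizer lam α := by rw [hT]; exact map_sylow_le _ _
  have hcardl : Nat.card T = p ^ (Nat.card (MulAction.stabilizer X lam)).factorization p := by
    rw [hT]; exact card_edge_sylow hc hα S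
  have hTp : IsPGroup p T := by
    rw [hT]; exact S.isPGroup'.map _
  have hQT : vertexQ p lam ≤ T :=
    pCoreOf_le_of_card _ T (hTE.trans inf_le_left) hcardl
  refine spe_no_normalized_subgroup h lam α hα S T hT U (hUQ.trans hQT) ?_ ?_
  · exact (pElementClosure_le_sup _ T (hTE.trans inf_le_left) hTp hcardl).trans
      (sup_le ((hTE.trans inf_le_right).trans hU) hR)
  · exact (pElementClosure_le _).trans hU

/-- `O^p(L_λ)` cannot act trivially on `V_λ^{(n)} / V_α^{(n-1)}` for `α` adjacent to `λ`. -/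
theorem not_commutator_le_neighbour [Fact p.Prime] (h : IsSpeAmalgamPair p M₁ M₂)
    {lam α : CosetVertex M₁ M₂} (hα : (cosetGraph M₁ M₂).Adj lam α) (n : ℕ) (hn : 1 ≤ n)
    (hVQ : vertexVIter p M₁ M₂ n lam ≤ vertexQ p lam) :
    ¬ ⁅vertexVIter p M₁ M₂ n lam, residualOf p (MulAction.stabilizer X lam)⁆ ≤
      vertexVIter p M₁ M₂ (n - 1) α := by
  intro hle
  have hc := h.1
  have hconn := connected_of_sup_eq_top hc.1.1
  have hd1 : (cosetGraph M₁ M₂).dist lam α = 1 := SimpleGraph.dist_eq_one_iff_adj.2 hα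
  have hUV : vertexVIter p M₁ M₂ (n - 1) α ≤ vertexVIter p M₁ M₂ n lam :=
    vertexVIter_mono_of_dist hconn (by omega)
  have key : ∀ r ∈ residualOf p (MulAction.stabilizer X lam),
      (vertexVIter p M₁ M₂ (n - 1) α).map (MulAut.conj r).toMonoidHom ≤
        vertexVIter p M₁ M₂ (n - 1) α := by
    rintro r hr _ ⟨u, hu, rfl⟩
    have h1 : ⁅u, r⁆ ∈ vertexVIter p M₁ M₂ (n - 1) α :=
      hle (Subgroup.commutator_mem_commutator (hUV hu) hr)
    have e : (MulAut.conj r).toMonoidHom u = ⁅u, r⁆⁻¹ * u := by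
      simp only [MulEquiv.coe_toMonoidHom, MulAut.conj_apply, commutatorElement_def]
      group
    rw [e]
    exact Subgroup.mul_mem _ (Subgroup.inv_mem _ h1) hu
  have hbot := eq_bot_of_residual_normalizes h hα (vertexVIter p M₁ M₂ (n - 1) α) (hUV.trans hVQ)
    (le_normalizer_vertexVIter hc _ α)
    (fun r hr => mem_normalizer_of_conj_le (key r hr) (key r⁻¹ (Subgroup.inv_mem _ hr)))
  have hZ : vertexZ p α ≤ vertexVIter p M₁ M₂ (n - 1) α :=
    vertexZ_le_vertexVIter (by simp)
  rw [hbot, le_bot_iff] at hZ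
  exact vertexZ_ne_bot hc α hZ

/-- `O^p(L_λ)` cannot act trivially on `V^{(n)} / [V^{(n)}, Q_λ]`. -/
theorem not_commutator_le_commutator [Fact p.Prime] (h : IsSpeAmalgamPair p M₁ M₂)
    (lam : CosetVertex M₁ M₂) (n : ℕ) (hn : 1 ≤ n)
    (hVQ : vertexVIter p M₁ M₂ n lam ≤ vertexQ p lam) :
    ¬ ⁅vertexVIter p M₁ M₂ n lam, residualOf p (MulAction.stabilizer X lam)⁆ ≤
      ⁅vertexVIter p M₁ M₂ n lam, vertexQ p lam⁆ := by
  intro hR
  have hc := h.1
  have hconn := connected_of_sup_eq_top hc.1.1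
  obtain ⟨α, hα⟩ := exists_adj lam
  have hfl := finite_stabilizer hc lam
  have hfe := finite_edge hc lam α
  obtain ⟨V, hVdef⟩ : ∃ V, V = vertexVIter p M₁ M₂ n lam := ⟨_, rfl⟩
  obtain ⟨U, hUdef⟩ : ∃ U, U = vertexVIter p M₁ M₂ (n - 1) α := ⟨_, rfl⟩
  obtain ⟨A, hAdef⟩ : ∃ A, A = MulAction.stabilizer X lam := ⟨_, rfl⟩
  obtain ⟨R, hRdef⟩ : ∃ R, R = residualOf p A := ⟨_, rfl⟩
  obtain ⟨C, hCdef⟩ : ∃ C, C = (⁅V, R⁆ : Subgroup X) := ⟨_, rfl⟩
  have hd1 : (cosetGraph M₁ M₂).dist lam α = 1 := SimpleGraph.dist_eq_one_iff_adj.2 hα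
  have hUV : U ≤ V := by
    rw [hUdef, hVdef]; exact vertexVIter_mono_of_dist hconn (by omega)
  have hAV : A ≤ Subgroup.normalizer (V : Set X) := by
    rw [hAdef, hVdef]; exact le_normalizer_vertexVIter hc n lam
  have hAR : A ≤ Subgroup.normalizer (R : Set X) := by
    rw [hRdef]; exact le_normalizer_residualOf A
  have hAC : A ≤ Subgroup.normalizer (C : Set X) := fun g hg => by
    rw [hCdef]; exact commutator_mem_normalizer (hAV hg) (hAR hg)
  have hBU : MulAction.stabilizer X α ≤ Subgroup.normalizer (U : Set X) := by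
    rw [hUdef]; exact le_normalizer_vertexVIter hc _ α
  obtain ⟨S⟩ : Nonempty (Sylow p ↥(edgeStabilizer lam α)) := inferInstance
  obtain ⟨T, hT⟩ : ∃ T, T = (S : Subgroup ↥(edgeStabilizer lam α)).map
      (edgeStabilizer lam α).subtype := ⟨_, rfl⟩
  have hTE : T ≤ edgeStabilizer lam α := by rw [hT]; exact map_sylow_le _ _
  have hcardl : Nat.card T = p ^ (Nat.card (MulAction.stabilizer X lam)).factorization p := by
    rw [hT]; exact card_edge_sylow hc hα S
  have hcardE : Nat.card T = p ^ (Nat.card ↥(edgeStabilizer lam α)).factorization p := by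
    rw [hT]; exact card_map_sylow _ S
  have hTp : IsPGroup p T := by
    rw [hT]; exact S.isPGroup'.map _
  -- `A` normalizes `U ⊔ C`
  have hRle : ∀ r ∈ R, r ∈ Subgroup.normalizer ((U ⊔ C : Subgroup X) : Set X) := by
    have key : ∀ r ∈ R, (U ⊔ C).map (MulAut.conj r).toMonoidHom ≤ U ⊔ C := by
      intro r hr
      have hrA : r ∈ A := by
        rw [hRdef] at hr
        obtain ⟨y, _, rfl⟩ := hr
        exact pElementClosure_le A y.2
      rw [Subgroup.map_sup]
      refine sup_le ?_ ((map_conj_le_of_mem_normalizer (hAC hrA)).trans le_sup_right)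
      rintro _ ⟨u, hu, rfl⟩
      have h1 : ⁅u, r⁆ ∈ C := by
        rw [hCdef]; exact Subgroup.commutator_mem_commutator (hUV hu) hr
      have e : (MulAut.conj r).toMonoidHom u = ⁅u, r⁆⁻¹ * u := by
        simp only [MulEquiv.coe_toMonoidHom, MulAut.conj_apply, commutatorElement_def]
        group
      rw [e]
      exact Subgroup.mul_mem _ (Subgroup.mem_sup_right (Subgroup.inv_mem _ h1))
        (Subgroup.mem_sup_left hu)
    exact fun r hr => mem_normalizer_of_conj_le (key r hr) (key r⁻¹ (Subgroup.inv_mem _ hr))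
  have hEW : edgeStabilizer lam α ≤ Subgroup.normalizer ((U ⊔ C : Subgroup X) : Set X) := by
    intro g hg
    exact sup_mem_normalizer (hBU hg.2) (hAC (by rw [hAdef]; exact hg.1))
  have hAW : A ≤ Subgroup.normalizer ((U ⊔ C : Subgroup X) : Set X) := by
    haveI : Finite A := by rw [hAdef]; exact hfl
    refine le_normalizer_of_sylow A T _ (by rw [hAdef]; exact hTE.trans inf_le_left) hTp
      (by rw [hAdef]; exact hcardl) (hTE.trans hEW)
      (by rw [← hRdef]; exact fun r hr => hRle r hr) ?_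
    rw [hAdef]
    exact (spe_edge_normalizer h hα T hTE hcardE).2.trans hEW
  -- Step A: `V ≤ Z_λ (U C)`
  have hVsup : V ≤ vertexZ p lam ⊔ (U ⊔ C) := by
    rw [hVdef]
    refine iSup_le fun μ => ?_
    by_cases hμ0 : (cosetGraph M₁ M₂).dist lam (μ : CosetVertex M₁ M₂) = 0
    · have : lam = (μ : CosetVertex M₁ M₂) := (hconn.dist_eq_zero_iff).1 hμ0
      rw [← this]
      exact le_sup_left
    · obtain ⟨β, hβ, hβd⟩ := exists_adj_closer hconn (a := lam) (b := (μ : CosetVertex M₁ M₂))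
        (Nat.pos_of_ne_zero hμ0)
      obtain ⟨g, hg, rfl⟩ := stabilizer_transitive_neighbours lam α β hα hβ
      have hμn : (cosetGraph M₁ M₂).dist lam (μ : CosetVertex M₁ M₂) ≤ n := μ.2
      have h1 : vertexZ p (μ : CosetVertex M₁ M₂) ≤ vertexVIter p M₁ M₂ (n - 1) (g • α) :=
        vertexZ_le_vertexVIter (by omega)
      refine h1.trans (le_trans ?_ le_sup_right)
      intro x hx
      have h2 : g⁻¹ * x * g ∈ U := by
        have h3 := vertexVIter_smul_le hc g⁻¹ (n - 1) (g • α) ⟨x, hx, rfl⟩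
        rw [inv_smul_smul, ← hUdef] at h3
        simpa using h3
      have h4 : g ∈ A := by rw [hAdef]; exact hg
      have h5 := (Subgroup.mem_normalizer_iff.1 (hAW h4) _).1
        (Subgroup.mem_sup_left (S := U) (T := C) h2)
      have e : g * (g⁻¹ * x * g) * g⁻¹ = x := by group
      rwa [e] at h5
  -- Step B
  obtain ⟨Q, hQdef⟩ : ∃ Q, Q = vertexQ p lam := ⟨_, rfl⟩
  haveI hQfin : Finite Q := by
    rw [hQdef]
    exact Finite.of_injective _ (Subgroup.inclusion_injective (pCoreOf_le _))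
  have hQp : IsPGroup p Q := by
    rw [hQdef]
    unfold vertexQ pCoreOf
    exact Cfsg.Agent.Lib.Core.Basic.pCore_isPGroup.map _
  have hVQ' : V ≤ Q := by rw [hVdef, hQdef]; exact hVQ
  have hUQ : U ≤ Q := hUV.trans hVQ'
  have hZQ : vertexZ p lam ≤ Q := by rw [hQdef]; exact vertexZ_le_vertexQ hc lam
  have hQA : Q ≤ MulAction.stabilizer X lam := by rw [hQdef]; exact pCoreOf_le _
  have hQB : Q ≤ MulAction.stabilizer X α := by
    rw [hQdef]
    exact (vertexQ_le_neighbourKernel hc lam).trans (neighbourKernel_le_stabilizer hα)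
  have hQU : Q ≤ Subgroup.normalizer (U : Set X) := hQB.trans hBU
  have hQZ : Q ≤ Subgroup.normalizer (vertexZ p lam : Set X) :=
    hQA.trans (le_normalizer_sylowCenterClosure _)
  have hVN : V ≤ vertexZ p lam ⊔ U := by
    refine le_of_le_sup_commutator' (p := p) Q _ V hQp (sup_le hZQ hUQ) hVQ'
      (fun q hq => sup_mem_normalizer (hQZ hq) (hQU hq)) ?_
    have hCle : C ≤ ⁅V, Q⁆ := by
      rw [hCdef, hRdef, hAdef, hVdef, hQdef]; exact hR
    refine hVsup.trans ?_
    rw [← sup_assoc]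
    exact sup_le_sup_left hCle _
  -- Step C
  have hcomm : ⁅V, Q⁆ ≤ U :=
    (Subgroup.commutator_mono hVN le_rfl).trans
      (commutator_sup_central_le Q _ U hZQ (by rw [hQdef]; exact vertexZ_le_centralizer hc lam)
        hUQ hQU)
  apply not_commutator_le_neighbour h hα n hn hVQ
  rw [← hUdef, ← hVdef, ← hAdef, ← hRdef]
  have hCle : (⁅V, R⁆ : Subgroup X) ≤ ⁅V, Q⁆ := by
    rw [hRdef, hAdef, hVdef, hQdef]; exact hR
  exact hCle.trans hcomm

end vertices

end Cfsg.Agent.Lib.Amalgam.VIter
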